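import Cfsg.Agent.CharBasics.Extra
import Cfsg.Agent.CharBasics.Avg
import Mathlib.NumberTheory.Cyclotomic.Gal

/-!
# The degree of a field of character values as an index in the units modulo a multiple of the group order
-/

set_option autoImplicit false
set_option linter.style.haveILetI false
set_option linter.unusedSectionVars false

namespace CfsgLib.PFieldBound

open Cfsg CfsgLib.CharBasics

universe u

variable {G : Type u} [Group G] [Finite G]

/-- The units fixing all values of a function under powers. -/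
def unitFix (M : ℕ) [NeZero M] (h : Nat.card G ∣ M) (χ : G → ℂ) : Subgroup (ZMod M)ˣ where
  carrier := {u | ∀ g, χ (g ^ (u : ZMod M).val) = χ g}
  one_mem' g := by
    rcases eq_or_ne M 1 with rfl | hM
    · haveI : Subsingleton G := (Nat.card_eq_one_iff_unique.1 (Nat.dvd_one.1 h)).1
      exact congrArg χ (Subsingleton.elim _ _)
    · haveI : Fact (1 < M) := ⟨by have := NeZero.ne M; omega⟩
      rw [Units.val_one, ZMod.val_one, pow_one]
  mul_mem' {a b} ha hb g := by
    rw [Units.val_mul, ZMod.val_mul]
    have e : g ^ ((a : ZMod M).val * (b : ZMod M).val % M) = (g ^ (a : ZMod M).val) ^ (b : ZMod M).val := by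
      rw [← pow_mul]
      exact pow_eq_pow_mod _ (orderOf_dvd_iff_pow_eq_one.1 ((orderOf_dvd_natCard g).trans h)) |>.symm
    rw [e, hb, ha]
  inv_mem' {a} ha g := by
    have h1 := ha (g ^ ((a⁻¹ : (ZMod M)ˣ) : ZMod M).val)
    rw [← pow_mul] at h1
    rw [← h1]
    refine congrArg χ ?_
    rw [← pow_mod_natCard]
    conv_rhs => rw [← pow_one g, ← pow_mod_natCard]
    congr 1
    have h2 : ((a⁻¹ : (ZMod M)ˣ) : ZMod M).val * (a : ZMod M).val ≡ 1 [MOD M] := by
      rw [← ZMod.natCast_eq_natCast_iff]
      simp [← Units.val_mul]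
    exact h2.of_dvd h

theorem mem_unitFix {M : ℕ} [NeZero M] {h : Nat.card G ∣ M} {χ : G → ℂ} {u : (ZMod M)ˣ} :
    u ∈ unitFix M h χ ↔ ∀ g, χ (g ^ (u : ZMod M).val) = χ g := Iff.rfl

/-- The degree of the field of values. -/
theorem finrank_adjoin_values (M : ℕ) [NeZero M] (h : Nat.card G ∣ M) {χ : G → ℂ} (hχ : Cfsg.IsCharacter G χ) :
    Module.finrank ℚ (IntermediateField.adjoin ℚ (Set.range χ)) = (unitFix M h χ).index := by
  classical
  have hζ := zetaRoot_prim (NeZero.ne M)
  let L : IntermediateField ℚ ℂ := IntermediateField.adjoin ℚ {zetaRoot M}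
  haveI hcyc : IsCyclotomicExtension {M} ℚ L := by
    change IsCyclotomicExtension {M} ℚ L.toSubalgebra
    rw [IntermediateField.adjoin_simple_toSubalgebra_of_isAlgebraic
      ((hζ.isIntegral (NeZero.pos M)).tower_top (A := ℚ)).isAlgebraic]
    exact hζ.adjoin_isCyclotomicExtension ℚ
  haveI : FiniteDimensional ℚ L := IsCyclotomicExtension.finiteDimensional {M} ℚ L
  haveI : IsGalois ℚ L := IsCyclotomicExtension.isGalois {M} ℚ L
  let z : L := ⟨zetaRoot M, IntermediateField.subset_adjoin ℚ _ rfl⟩
  have hz : IsPrimitiveRoot z M := IsPrimitiveRoot.coe_submonoidClass_iff.1 hζ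
  let ψ : Gal(L/ℚ) →* (ZMod M)ˣ := hz.autToPow ℚ
  have hψ : Function.Bijective ψ := by
    refine (Fintype.bijective_iff_injective_and_card _).2 ⟨hz.autToPow_injective (K := ℚ), ?_⟩
    rw [← Nat.card_eq_fintype_card, IsGalois.card_aut_eq_finrank,
      show Module.finrank ℚ L = M.totient from IsCyclotomicExtension.finrank L (Polynomial.cyclotomic.irreducible_rat (NeZero.pos M)), ZMod.card_units_eq_totient]
  have hval : ∀ g : G, ∃ v : L, (v : ℂ) = χ g ∧ ∀ σ : Gal(L/ℚ), (σ v : ℂ) = χ (g ^ (ψ σ : ZMod M).val) := by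
    intro g
    obtain ⟨lam, hl, hv⟩ := exists_eigen hχ g
    have hk : ∀ i, ∃ k < M, zetaRoot M ^ k = lam i := fun i => by
      refine hζ.eq_pow_of_pow_eq_one ?_
      obtain ⟨d, hd⟩ := (orderOf_dvd_natCard g).trans h
      rw [hd, pow_mul, hl i, one_pow]
    choose k hk hkeq using hk
    refine ⟨∑ i, z ^ k i, ?_, fun σ => ?_⟩
    · rw [← pow_one g, hv]
      simp [z, hkeq]
    · have hσ : σ z = z ^ (ψ σ : ZMod M).val := (hz.autToPow_spec ℚ σ).symm
      rw [hv, map_sum]
      push_cast
      refine Finset.sum_congr rfl fun i _ => ?_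
      rw [map_pow, hσ, ← pow_mul, ← hkeq i, ← pow_mul, mul_comm]
      rfl
  choose v hv hvσ using hval
  have hle : IntermediateField.adjoin ℚ (Set.range χ) ≤ L := by
    rw [IntermediateField.adjoin_le_iff]
    rintro _ ⟨g, rfl⟩
    exact hv g ▸ (v g).2
  let K' : IntermediateField ℚ L := IntermediateField.restrict hle
  have he : Module.finrank ℚ (IntermediateField.adjoin ℚ (Set.range χ)) = Module.finrank ℚ K' :=
    (IntermediateField.restrictAlgEquiv hle).toLinearEquiv.finrank_eq
  have hfix : K'.fixingSubgroup = (unitFix M h χ).comap ψ := by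
    ext σ
    rw [IntermediateField.mem_fixingSubgroup_iff, Subgroup.mem_comap, mem_unitFix]
    constructor
    · intro hσ g
      rw [← hvσ g σ, hσ (v g) ((IntermediateField.mem_restrict hle _).2 (by
        rw [hv g]; exact IntermediateField.subset_adjoin ℚ _ ⟨g, rfl⟩)), hv g]
    · intro hσ w hw
      have hF : IntermediateField.adjoin ℚ (Set.range χ) ≤
          IntermediateField.lift (IntermediateField.fixedField (Subgroup.zpowers σ)) := by
        rw [IntermediateField.adjoin_le_iff]
        rintro _ ⟨g, rfl⟩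
        rw [SetLike.mem_coe, ← hv g]
        refine (IntermediateField.mem_lift (v g)).2 ?_
        rw [IntermediateField.mem_fixedField_iff]
        intro τ hτ
        have hstab : Subgroup.zpowers σ ≤ MulAction.stabilizer (Gal(L/ℚ)) (v g) :=
          Subgroup.zpowers_le.2 (Subtype.ext (by
            show ((σ (v g) : L) : ℂ) = _
            rw [hvσ g σ, hσ g, hv g]))
        exact MulAction.mem_stabilizer_iff.1 (hstab hτ)
      have h2 := (IntermediateField.mem_lift w).1 (hF ((IntermediateField.mem_restrict hle w).1 hw))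
      exact (IntermediateField.mem_fixedField_iff _ _).1 h2 σ (Subgroup.mem_zpowers σ)
  rw [he, IntermediateField.finrank_eq_fixingSubgroup_index, hfix, Subgroup.index_comap_of_surjective _ hψ.2]

end CfsgLib.PFieldBound
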