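import Cfsg.Agent.PFieldBound.Index
import Cfsg.Agent.Clifford.Monomial
import Cfsg.Agent.CharBasics.Central
import Cfsg.Agent.BrauerInd.Regular
import Cfsg.Agent.BrauerInd.Galois
import Mathlib.Data.ZMod.Units

/-!
# The order of a p-group with a faithful irreducible character with given field of values
-/

set_option autoImplicit false
set_option linter.style.haveILetI false
set_option linter.unusedSectionVars false

namespace CfsgLib.PFieldBound

open Cfsg CfsgLib.CharBasics CfsgLib.Clifford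

universe u

section Powers

variable {G : Type u} [Group G] [Finite G] {M : ℕ} [NeZero M]

theorem coprime_val (h : Nat.card G ∣ M) (u : (ZMod M)ˣ) (g : G) : ((u : ZMod M).val).Coprime (orderOf g) :=
  (ZMod.val_coe_unit_coprime u).coprime_dvd_right ((orderOf_dvd_natCard g).trans h)

theorem pow_mem_iff (h : Nat.card G ∣ M) (H : Subgroup G) (u : (ZMod M)ˣ) (g : G) :
    g ^ (u : ZMod M).val ∈ H ↔ g ∈ H := by
  refine ⟨fun hh => ?_, fun hh => H.pow_mem hh _⟩
  obtain ⟨m, hm⟩ := exists_pow_eq_self_of_coprime (coprime_val h u g)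
  exact hm ▸ H.pow_mem hh m

theorem pow_mul_val (h : Nat.card G ∣ M) (u v : (ZMod M)ˣ) (g : G) :
    g ^ ((u * v : (ZMod M)ˣ) : ZMod M).val = (g ^ (u : ZMod M).val) ^ (v : ZMod M).val := by
  rw [Units.val_mul, ZMod.val_mul, ← pow_mul]
  exact (pow_eq_pow_mod _ (orderOf_dvd_iff_pow_eq_one.1 ((orderOf_dvd_natCard g).trans h))).symm

theorem pow_one_val (h : Nat.card G ∣ M) (g : G) : g ^ ((1 : (ZMod M)ˣ) : ZMod M).val = g := by
  rcases eq_or_ne M 1 with rfl | hM
  · haveI : Subsingleton G := (Nat.card_eq_one_iff_unique.1 (Nat.dvd_one.1 h)).1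
    exact Subsingleton.elim _ _
  · haveI : Fact (1 < M) := ⟨by have := NeZero.ne M; omega⟩
    rw [Units.val_one, ZMod.val_one, pow_one]

end Powers

variable {p : ℕ} [hp : Fact p.Prime]

/-- The units fixing a faithful linear character. -/
theorem index_linear {Q : Type u} [Group Q] [Finite Q] {M : ℕ} [NeZero M] (h : Nat.card Q ∣ M) {χ : Q → ℂ}
    (hχ : IsIrrCharacter Q χ) (hf : charDegree χ = 1) (hfaith : ∀ g : Q, χ g = χ 1 → g = 1) :
    (unitFix M h χ).index = Nat.totient (Nat.card Q) := by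
  classical
  have h1 : χ 1 = 1 := by rw [apply_one (isCharacter_of_irr hχ), hf, Nat.cast_one]
  obtain ⟨l, hl⟩ := exists_hom_of_linear (isCharacter_of_irr hχ) h1
  subst hl
  have hinj : Function.Injective l := by
    intro a b hab
    have h2 : l (a * b⁻¹) = 1 := by rw [map_mul, hab, ← map_mul, mul_inv_cancel, map_one]
    exact mul_inv_eq_one.1 (hfaith _ (by show l _ = l 1; rw [h2, map_one]))
  haveI : IsCyclic Q := isCyclic_of_subgroup_isDomain l hinj
  haveI : NeZero (Nat.card Q) := ⟨Nat.card_pos.ne'⟩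
  have hker : unitFix M h (fun g => l g) = (ZMod.unitsMap h).ker := by
    ext u
    rw [mem_unitFix, MonoidHom.mem_ker]
    obtain ⟨g, hg⟩ := IsCyclic.exists_generator (α := Q)
    have hgo : orderOf g = Nat.card Q := orderOf_eq_card_of_forall_mem_zpowers hg
    have key : (g ^ (u : ZMod M).val = g) ↔ ZMod.unitsMap h u = 1 := by
      rw [Units.ext_iff, ZMod.unitsMap_def, Units.coe_map, Units.val_one]
      show g ^ (u : ZMod M).val = g ↔ ZMod.castHom h (ZMod (Nat.card Q)) (u : ZMod M) = 1
      conv_lhs => rhs; rw [← pow_one g]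
      rw [pow_eq_pow_iff_modEq, hgo, ← ZMod.natCast_eq_natCast_iff, Nat.cast_one, ZMod.castHom_apply, ZMod.cast_eq_val]
    constructor
    · exact fun hu => key.1 (hinj (hu g))
    · intro hu y
      obtain ⟨i, rfl⟩ := Subgroup.mem_zpowers_iff.1 (hg y)
      rw [← zpow_natCast, ← zpow_mul, mul_comm, zpow_mul, zpow_natCast, key.2 hu]
  rw [hker, Subgroup.index_ker, MonoidHom.range_eq_top.2 (ZMod.unitsMap_surjective h), Subgroup.card_top,
    Nat.card_eq_fintype_card, ZMod.card_units_eq_totient]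

set_option maxHeartbeats 1000000 in
/-- The order of a `p`-group with a faithful irreducible character and the field degree of that character. -/
theorem bound (M : ℕ) [NeZero M] : ∀ (n : ℕ) (Q : Type u) [Group Q] [Finite Q], Nat.card Q = n → IsPGroup p Q →
    ∀ (h : Nat.card Q ∣ M) (χ : Q → ℂ), IsIrrCharacter Q χ → (∀ g : Q, χ g = χ 1 → g = 1) →
    ∀ t : ℕ, (unitFix M h χ).index = (p - 1) * p ^ t →
      (p - 1) * (Nat.card Q).factorization p + 1 ≤ charDegree χ + (p - 1) * (t + 1) * charDegree χ := by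
  intro n
  induction n using Nat.strong_induction_on with
  | _ n ih =>
  intro Q _ _ hn hpQ h χ hχ hfaith t ht
  classical
  haveI := Fintype.ofFinite Q
  have hq : 1 ≤ p - 1 := by have := hp.out.two_le; omega
  rcases eq_or_ne (charDegree χ) 1 with hf | hf
  · rw [hf, mul_one]
    obtain ⟨a, ha⟩ := hpQ.exists_card_eq
    rw [ha, hp.out.factorization_pow, Finsupp.single_eq_same]
    rcases Nat.eq_zero_or_pos a with rfl | ha0
    · simp
    rw [index_linear h hχ hf hfaith, ha, Nat.totient_prime_pow hp.out ha0, mul_comm (p ^ (a - 1))] at ht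
    have := Nat.pow_right_injective hp.out.two_le (Nat.eq_of_mul_eq_mul_left hq ht)
    rw [← this, Nat.sub_add_cancel ha0]
    omega
  haveI : Group.IsNilpotent Q := hpQ.isNilpotent
  obtain ⟨H, lam, hlam⟩ := monomial_of_isNilpotent (Nat.card Q) Q rfl χ hχ
  have hHtop : H ≠ ⊤ := by
    rintro rfl
    apply hf
    have h1 := congrFun hlam 1
    rw [indFun_apply_one, Subgroup.index_top, map_one, Units.val_one, apply_one (isCharacter_of_irr hχ)] at h1
    have h2 : (charDegree χ : ℂ) = ((1 : ℕ) : ℂ) := by simpa using h1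
    exact_mod_cast h2
  obtain ⟨N, hN, hHN⟩ := (IsCoatomic.eq_top_or_exists_le_coatom H).resolve_left hHtop
  haveI hNn : N.Normal := Subgroup.NormalizerCondition.normal_of_coatom N Group.normalizerCondition_of_isNilpotent hN
  have hidx : N.index = p := by
    haveI : IsSimpleGroup (Q ⧸ N) := by
      haveI : Nontrivial (Q ⧸ N) := QuotientGroup.nontrivial_iff.2 hN.1
      refine ⟨fun K hK => ?_⟩
      rcases eq_or_lt_of_le (QuotientGroup.le_comap_mk' N K) with h1 | h1
      · left; rw [← Subgroup.map_comap_eq_self_of_surjective (QuotientGroup.mk'_surjective N) K, ← h1,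
          QuotientGroup.map_mk'_self]
      · right; rw [← Subgroup.map_comap_eq_self_of_surjective (QuotientGroup.mk'_surjective N) K, hN.2 _ h1,
          Subgroup.map_top_of_surjective _ (QuotientGroup.mk'_surjective N)]
    rw [Subgroup.index_eq_card]
    obtain ⟨k, hk⟩ := (hpQ.to_quotient N).exists_card_eq
    haveI : Group.IsNilpotent (Q ⧸ N) := (hpQ.to_quotient N).isNilpotent
    have hpr : (Nat.card (Q ⧸ N)).Prime := by
      have hc : IsMulCommutative (Q ⧸ N) := by
        rcases eq_or_ne (Subgroup.center (Q ⧸ N)) ⊥ with hb | hb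
        · exact absurd hb (Group.IsNilpotent.center_ne_bot _)
        · have ht' := (IsSimpleGroup.eq_bot_or_eq_top_of_normal _ (inferInstance : (Subgroup.center (Q ⧸ N)).Normal)).resolve_left hb
          exact ⟨⟨fun a b => (Subgroup.mem_center_iff.1 (ht' ▸ Subgroup.mem_top b : b ∈ Subgroup.center (Q ⧸ N)) a)⟩⟩
      letI : CommGroup (Q ⧸ N) := { (inferInstance : Group (Q ⧸ N)) with mul_comm := hc.is_comm.comm }
      exact IsSimpleGroup.prime_card
    rw [hk] at hpr ⊢
    rcases Nat.Prime.eq_one_of_pow hpr with rfl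
    exact pow_one p
  haveI : Fintype N := Fintype.ofFinite _
  have hoff : ∀ g, g ∉ N → χ g = 0 := by
    intro g hg
    rw [hlam, indFun, Finset.sum_eq_zero, mul_zero]
    intro x _
    refine CfsgLib.IndFun.extendByZero_not_mem _ fun hm => hg ?_
    have := hNn.conj_mem _ (hHN hm) x
    rwa [show x * (x⁻¹ * g * x) * x⁻¹ = g by group] at this
  obtain ⟨θ, hθ'⟩ := exists_restrict_constituent N ⟨χ, hχ⟩
  have hθ : classInner (fun m : N => χ m) (θ : N → ℂ) ≠ 0 := by
    rw [classInner_comm, Ne, map_eq_zero]; exact hθ'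
  set O : Finset (N → ℂ) := Finset.univ.image (fun g : Q => conjFun g (θ : N → ℂ)) with hO
  set c := classInner (fun m : N => χ m) (θ : N → ℂ) with hc
  have hres : (fun m : N => χ m) = c • ∑ η ∈ O, η := restrict_eq_orbit_sum hχ θ.2 hθ
  have hirrO : ∀ η ∈ O, IsIrrCharacter N η := fun η hη => by
    obtain ⟨g, -, rfl⟩ := Finset.mem_image.1 hη
    exact isIrrCharacter_conjFun g θ.2
  have hin : inertia (θ : N → ℂ) = N := by
    rcases (le_inertia (isClassFunction (isCharacter_of_irr θ.2))).eq_or_lt with h1 | h1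
    · exact h1.symm
    exfalso
    have htop := hN.2 _ h1
    have hinv : ∀ g, conjFun g (θ : N → ℂ) = θ := fun g => mem_inertia.1 (htop ▸ Subgroup.mem_top g)
    have hs := restrict_eq_smul_of_invariant hχ θ.2 hinv hθ
    obtain ⟨k, hk⟩ := classInner_characters_nat (CharBasics.isCharacter_restrict (isCharacter_of_irr hχ) N) (isCharacter_of_irr θ.2)
    have hck : c = (k : ℂ) := hk
    have hn1 : classInner (fun m : N => χ m) (fun m : N => χ m) = (p : ℂ) := by
      have hQ : classInner χ χ = 1 := classInner_self hχ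
      rw [classInner_eq] at hQ ⊢
      have hsum : ∑ g : Q, χ g * starRingEnd ℂ (χ g) = ∑ m : N, χ m * starRingEnd ℂ (χ m) := by
        rw [← Finset.sum_subtype (Finset.univ.filter (· ∈ N)) (fun x => by simp) (fun g => χ g * starRingEnd ℂ (χ g))]
        refine (Finset.sum_filter_of_ne fun g _ hg => ?_).symm
        by_contra hgN
        exact hg (by rw [hoff g hgN, zero_mul])
      rw [← hsum]
      have hNc : (Nat.card N : ℂ) ≠ 0 := Nat.cast_ne_zero.2 Nat.card_pos.ne'
      have hpc : (p : ℂ) ≠ 0 := Nat.cast_ne_zero.2 hp.out.ne_zero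
      rw [← N.index_mul_card, hidx, Nat.cast_mul] at hQ
      field_simp at hQ ⊢
      linear_combination hQ
    rw [hs, ← hc, classInner_smul_left, classInner_comm, classInner_smul_left, classInner_self θ.2, mul_one, hck,
      Complex.conj_natCast] at hn1
    have h2 : k * k = p := by exact_mod_cast hn1
    rcases hp.out.eq_one_or_self_of_dvd k (Dvd.intro k h2) with h3 | h3
    · rw [h3] at h2; exact hp.out.one_lt.ne h2
    · rw [h3] at h2; nlinarith [hp.out.two_le]
  have hOcard : O.card = p := by rw [hO, card_orbit, hin, hidx]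
  have hdeg : charDegree χ = p * charDegree (θ : N → ℂ) * 1 := by
    have hn1 : classInner (fun m : N => χ m) (fun m : N => χ m) = (p : ℂ) * (c * starRingEnd ℂ c) := by
      rw [hres, classInner_smul_left, classInner_comm, classInner_smul_left, classInner_sum_left]
      rw [Finset.sum_congr rfl (g := fun _ => (1 : ℂ)) fun η hη => by
        rw [classInner_sum_right, Finset.sum_eq_single η (fun η' hη' hne => classInner_ne (hirrO η hη) (hirrO η' hη') (Ne.symm hne))
          (fun h' => absurd hη h'), classInner_self (hirrO η hη)]]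
      rw [Finset.sum_const, hOcard, nsmul_one, map_mul, Complex.conj_natCast]
      ring
    have hn2 : classInner (fun m : N => χ m) (fun m : N => χ m) = (p : ℂ) := by
      have hQ : classInner χ χ = 1 := classInner_self hχ
      rw [classInner_eq] at hQ ⊢
      have hsum : ∑ g : Q, χ g * starRingEnd ℂ (χ g) = ∑ m : N, χ m * starRingEnd ℂ (χ m) := by
        rw [← Finset.sum_subtype (Finset.univ.filter (· ∈ N)) (fun x => by simp) (fun g => χ g * starRingEnd ℂ (χ g))]
        refine (Finset.sum_filter_of_ne fun g _ hg => ?_).symm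
        by_contra hgN
        exact hg (by rw [hoff g hgN, zero_mul])
      rw [← hsum]
      have hNc : (Nat.card N : ℂ) ≠ 0 := Nat.cast_ne_zero.2 Nat.card_pos.ne'
      have hpc : (p : ℂ) ≠ 0 := Nat.cast_ne_zero.2 hp.out.ne_zero
      rw [← N.index_mul_card, hidx, Nat.cast_mul] at hQ
      field_simp at hQ ⊢
      linear_combination hQ
    obtain ⟨k, hk⟩ := classInner_characters_nat (CharBasics.isCharacter_restrict (isCharacter_of_irr hχ) N) (isCharacter_of_irr θ.2)
    have hck : c = (k : ℂ) := hk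
    rw [hn2, hck, Complex.conj_natCast] at hn1
    have h2 : p * (k * k) = p * 1 := by rw [mul_one]; exact_mod_cast hn1.symm
    have hk1 : k = 1 := (mul_eq_one.1 (Nat.eq_of_mul_eq_mul_left hp.out.pos h2)).1
    have h3 := restrict_one_eq hχ θ.2 hθ
    rw [← hc, hck, hk1, hin, hidx, apply_one (isCharacter_of_irr hχ), apply_one (isCharacter_of_irr θ.2)] at h3
    rw [mul_one]
    rw [Nat.cast_one, one_mul] at h3
    exact_mod_cast h3
  rw [mul_one] at hdeg
  have hcN : Nat.card N ∣ M := (Subgroup.card_subgroup_dvd_card N).trans h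
  have hθfix : unitFix M hcN (θ : N → ℂ) ≤ unitFix M h χ := by
    intro u hu g
    by_cases hg : g ∈ N
    · have h1 := congrFun hres ⟨g, hg⟩
      have h2 := congrFun hres ⟨g ^ (u : ZMod M).val, N.pow_mem hg _⟩
      simp only [Pi.smul_apply, Finset.sum_apply] at h1 h2
      rw [h1, h2]
      congr 1
      refine Finset.sum_congr rfl fun η hη => ?_
      obtain ⟨q, -, rfl⟩ := Finset.mem_image.1 hη
      rw [conjFun_apply, conjFun_apply]
      refine Eq.trans (congrArg _ (Subtype.ext ?_)) (hu ⟨q * g * q⁻¹, hNn.conj_mem g hg q⟩)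
      show q * g ^ (u : ZMod M).val * q⁻¹ = (q * g * q⁻¹) ^ (u : ZMod M).val
      exact conj_pow.symm
    · rw [hoff g hg, hoff _ fun h' => hg ((pow_mem_iff h N u g).1 h')]
  have htw : ∀ u ∈ unitFix M h χ, (fun m : N => (θ : N → ℂ) (m ^ (u : ZMod M).val)) ∈ O := by
    intro u hu
    have hirr : IsIrrCharacter N (fun m : N => (θ : N → ℂ) (m ^ (u : ZMod M).val)) :=
      CfsgLib.BrauerInd.isIrr_pow ((ZMod.val_coe_unit_coprime u).coprime_dvd_right hcN) θ.2
    have h1 : classInner (fun m : N => χ m) (fun m : N => (θ : N → ℂ) (m ^ (u : ZMod M).val)) ≠ 0 := by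
      have e : (fun m : N => χ m) = fun m : N => χ ((m ^ (u : ZMod M).val : N) : Q) :=
        funext fun m => by rw [SubmonoidClass.coe_pow, hu]
      rw [e]
      have hbij : Function.Bijective fun m : N => m ^ (u : ZMod M).val :=
        Finite.injective_iff_bijective.1 fun a b hab =>
          (powCoprime ((ZMod.val_coe_unit_coprime u).coprime_dvd_right hcN).symm).injective hab
      rw [classInner_eq, hbij.sum_comp (fun m : N => χ m * starRingEnd ℂ ((θ : N → ℂ) m))]
      exact hθ
    obtain ⟨q, hq⟩ := constituent_conj hχ θ.2 hirr hθ h1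
    exact Finset.mem_image.2 ⟨q, Finset.mem_univ _, hq.symm⟩
  -- the quotient by the kernel of θ
  let K : Subgroup N := charKer (θ : N → ℂ) (isCharacter_of_irr θ.2)
  haveI : K.Normal := charKer_normal _
  obtain ⟨ψ, hψ⟩ := exists_quotient_irr θ K fun g hg => hg
  have hψfaith : ∀ x : N ⧸ K, (ψ : N ⧸ K → ℂ) x = (ψ : N ⧸ K → ℂ) 1 → x = 1 := by
    intro x hx
    obtain ⟨m, rfl⟩ := QuotientGroup.mk_surjective x
    rw [hψ, ← QuotientGroup.mk_one, hψ] at hx
    exact (QuotientGroup.eq_one_iff m).2 hx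
  have hcK : Nat.card (N ⧸ K) ∣ M := (Subgroup.card_quotient_dvd_card K).trans hcN
  have hψfix : unitFix M hcK (ψ : N ⧸ K → ℂ) = unitFix M hcN (θ : N → ℂ) := by
    ext u
    rw [mem_unitFix, mem_unitFix]
    constructor
    · intro hu m
      have := hu m
      rwa [← QuotientGroup.mk_pow, hψ, hψ] at this
    · intro hu x
      obtain ⟨m, rfl⟩ := QuotientGroup.mk_surjective x
      rw [← QuotientGroup.mk_pow, hψ, hψ]
      exact hu m
  have hψdeg : charDegree (ψ : N ⧸ K → ℂ) = charDegree (θ : N → ℂ) := by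
    have := hψ 1
    rw [QuotientGroup.mk_one, apply_one (isCharacter_of_irr ψ.2), apply_one (isCharacter_of_irr θ.2)] at this
    exact_mod_cast this
  have hNlt : Nat.card N < n := by
    rw [← hn, ← N.index_mul_card, hidx]
    have := Nat.card_pos (α := N)
    nlinarith [hp.out.two_le]
  have hKlt : Nat.card (N ⧸ K) < n := lt_of_le_of_lt (Nat.le_of_dvd Nat.card_pos (Subgroup.card_quotient_dvd_card K)) hNlt
  obtain ⟨aN, haN⟩ := (hpQ.to_subgroup N).exists_card_eq
  obtain ⟨a', ha'⟩ := ((hpQ.to_subgroup N).to_quotient K).exists_card_eq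
  have haQ : (Nat.card Q).factorization p = aN + 1 := by
    rw [← N.index_mul_card, hidx, haN, mul_comm, ← pow_succ, hp.out.factorization_pow, Finsupp.single_eq_same]
  rw [haQ, hdeg]
  have hIH : ∀ t', (unitFix M hcN (θ : N → ℂ)).index = (p - 1) * p ^ t' →
      (p - 1) * a' + 1 ≤ charDegree (θ : N → ℂ) + (p - 1) * (t' + 1) * charDegree (θ : N → ℂ) := by
    intro t' ht'
    have h1 := ih _ hKlt (N ⧸ K) rfl ((hpQ.to_subgroup N).to_quotient K) hcK (ψ : N ⧸ K → ℂ) ψ.2 hψfaith t'
      (by rw [hψfix]; exact ht')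
    rwa [ha', hp.out.factorization_pow, Finsupp.single_eq_same, hψdeg] at h1
  have hf0 : 1 ≤ charDegree (θ : N → ℂ) := charDegree_pos θ.2
  -- the orbit of θ under the units fixing χ
  by_cases hcase : ∀ u ∈ unitFix M h χ, (fun m : N => (θ : N → ℂ) (m ^ (u : ZMod M).val)) = (θ : N → ℂ)
  · have heq : unitFix M hcN (θ : N → ℂ) = unitFix M h χ :=
      le_antisymm hθfix fun u hu m => congrFun (hcase u hu) m
    have h1 := hIH t (by rw [heq]; exact ht)
    have hcardker : ∀ η ∈ O, Nat.card {m : N // η m = η 1} = Nat.card K := by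
      intro η hη
      obtain ⟨q, -, rfl⟩ := Finset.mem_image.1 hη
      refine Nat.card_congr ((MulAut.conjNormal q).toEquiv.subtypeEquiv fun m => ?_)
      show conjFun q (θ : N → ℂ) m = conjFun q (θ : N → ℂ) 1 ↔ (θ : N → ℂ) (MulAut.conjNormal q m) = (θ : N → ℂ) 1
      rw [conjFun_eq_comp]
      simp
    let Kη : {η // η ∈ O} → Subgroup N := fun η => charKer η.1 (isCharacter_of_irr (hirrO η.1 η.2))
    haveI : ∀ η, (Kη η).Normal := fun η => charKer_normal _
    have hinj : Function.Injective (MonoidHom.pi fun η => QuotientGroup.mk' (Kη η)) := by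
      rw [injective_iff_map_eq_one]
      intro m hm
      refine Subtype.ext (hfaith _ ?_)
      have e1 := congrFun hres m
      have e2 := congrFun hres 1
      simp only [Pi.smul_apply, Finset.sum_apply] at e1 e2
      rw [show χ (1 : Q) = χ ((1 : N) : Q) by rw [Subgroup.coe_one], e1, e2]
      congr 1
      exact Finset.sum_congr rfl fun η hη => (mem_charKer _ _).1 ((QuotientGroup.eq_one_iff (N := Kη ⟨η, hη⟩) m).1 (congrFun hm ⟨η, hη⟩))
    have h2 := Subgroup.card_dvd_of_injective _ hinj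
    have hquot : ∀ η : {η // η ∈ O}, Nat.card (N ⧸ Kη η) = p ^ a' := fun η => by
      have h3 := Subgroup.card_eq_card_quotient_mul_card_subgroup (Kη η)
      have h4 := Subgroup.card_eq_card_quotient_mul_card_subgroup K
      have h5 : Nat.card (Kη η) = Nat.card K := hcardker η.1 η.2
      rw [h4, h5] at h3
      rw [← ha']
      exact (Nat.eq_of_mul_eq_mul_right Nat.card_pos h3).symm
    rw [Nat.card_pi, Finset.prod_congr rfl (fun η _ => hquot η), Finset.prod_const, ← pow_mul, Finset.card_univ,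
      Fintype.card_coe, hOcard, haN, Nat.pow_dvd_pow_iff_le_right hp.out.one_lt] at h2
    have h6 : (p - 1) * aN ≤ p * ((p - 1) * a') := by
      calc (p - 1) * aN ≤ (p - 1) * (a' * p) := Nat.mul_le_mul_left _ h2
        _ = p * ((p - 1) * a') := by ring
    nlinarith [Nat.mul_le_mul_left p h1, Nat.sub_add_cancel hp.out.one_le]
  push Not at hcase
  obtain ⟨u₀, hu₀, hne₀⟩ := hcase
  let tw : (ZMod M)ˣ → (N → ℂ) → (N → ℂ) := fun u η m => η (m ^ (u : ZMod M).val)
  have htwconj : ∀ (u : (ZMod M)ˣ) (q : Q) (η : N → ℂ), conjFun q (tw u η) = tw u (conjFun q η) := by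
    intro u q η
    funext m
    simp only [tw, conjFun_apply]
    exact congrArg η (Subtype.ext (by simp [conj_pow]))
  let S0 : Submonoid Q :=
    { carrier := {q | ∃ u ∈ unitFix M h χ, tw u (θ : N → ℂ) = conjFun q (θ : N → ℂ)}
      one_mem' := ⟨1, one_mem _, by
        rw [conjFun_one]
        funext m
        exact congrArg _ (pow_one_val hcN m)⟩
      mul_mem' := fun {a b} ha hb => by
        obtain ⟨u, hu, hua⟩ := ha
        obtain ⟨v, hv, hvb⟩ := hb
        refine ⟨u * v, mul_mem hu hv, ?_⟩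
        rw [← conjFun_mul, ← hua, htwconj, ← hvb]
        funext m
        exact congrArg _ (pow_mul_val hcN u v m) }
  let S : Subgroup Q :=
    { S0 with
      inv_mem' := fun {a} ha => by
        have e : a⁻¹ = a ^ (orderOf a - 1) := by
          rw [inv_eq_iff_mul_eq_one, ← pow_succ', Nat.sub_add_cancel (orderOf_pos a), pow_orderOf_eq_one]
        exact e ▸ S0.pow_mem ha _ }
  obtain ⟨q₀, -, hq₀⟩ := Finset.mem_image.1 (htw u₀ hu₀)
  have hNS : N < S := by
    refine lt_of_le_of_ne (fun g hg => ⟨1, one_mem _, ?_⟩) fun e => hne₀ ?_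
    · rw [mem_inertia.1 (hin.symm ▸ hg : g ∈ inertia (θ : N → ℂ))]
      funext m
      exact congrArg _ (pow_one_val hcN m)
    · rw [← hq₀]
      exact mem_inertia.1 (hin.symm ▸ (e.symm ▸ (⟨u₀, hu₀, hq₀.symm⟩ : q₀ ∈ S) : q₀ ∈ N))
  have hall : ∀ η ∈ O, ∃ u ∈ unitFix M h χ, tw u (θ : N → ℂ) = η := by
    intro η hη
    obtain ⟨q, -, rfl⟩ := Finset.mem_image.1 hη
    exact (hN.2 S hNS ▸ Subgroup.mem_top q : q ∈ S)
  have hrel : (unitFix M hcN (θ : N → ℂ)).relIndex (unitFix M h χ) = p := by
    rw [Subgroup.relIndex, Subgroup.index, ← hOcard, ← Nat.card_eq_finsetCard]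
    let F : (unitFix M h χ) ⧸ (unitFix M hcN (θ : N → ℂ)).subgroupOf (unitFix M h χ) → {η // η ∈ O} :=
      Quotient.lift (fun u => ⟨tw u.1 (θ : N → ℂ), htw u.1 u.2⟩) fun a b hab => by
        have hab' : (a : (ZMod M)ˣ)⁻¹ * b ∈ unitFix M hcN (θ : N → ℂ) := by
          have := QuotientGroup.leftRel_apply.1 hab
          rwa [Subgroup.mem_subgroupOf] at this
        refine Subtype.ext (funext fun m => ?_)
        show (θ : N → ℂ) (m ^ ((a : (ZMod M)ˣ) : ZMod M).val) = (θ : N → ℂ) (m ^ ((b : (ZMod M)ˣ) : ZMod M).val)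
        conv_rhs => rw [show (b : (ZMod M)ˣ) = a * ((a : (ZMod M)ˣ)⁻¹ * b) by rw [mul_inv_cancel_left]]
        rw [pow_mul_val hcN, hab']
    refine Nat.card_congr (Equiv.ofBijective F ⟨?_, ?_⟩)
    · rintro ⟨a⟩ ⟨b⟩ hab
      refine Quotient.sound (QuotientGroup.leftRel_apply.2 (Subgroup.mem_subgroupOf.2 fun m => ?_))
      have h1 := congrFun (congrArg Subtype.val hab) (m ^ ((a⁻¹ : (unitFix M h χ)) : (ZMod M)ˣ).val.val)
      simp only [F, tw] at h1
      change (θ : N → ℂ) (m ^ (((a : (ZMod M)ˣ)⁻¹ * b : (ZMod M)ˣ) : ZMod M).val) = _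
      rw [pow_mul_val hcN]
      refine h1.symm.trans ?_
      rw [← pow_mul_val hcN]
      rw [Subgroup.coe_inv, inv_mul_cancel, pow_one_val hcN]
    · rintro ⟨η, hη⟩
      obtain ⟨u, hu, rfl⟩ := hall η hη
      exact ⟨QuotientGroup.mk ⟨u, hu⟩, rfl⟩
  have hidxθ : (unitFix M hcN (θ : N → ℂ)).index = (p - 1) * p ^ (t + 1) := by
    rw [← Subgroup.relIndex_mul_index hθfix, hrel, ht]; ring
  have h1 := hIH (t + 1) hidxθ
  have hKbot : K = ⊥ := by
    refine (Subgroup.eq_bot_iff_forall K).2 fun m hm => Subtype.ext (hfaith _ ?_)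
    have e1 := congrFun hres m
    have e2 := congrFun hres 1
    simp only [Pi.smul_apply, Finset.sum_apply] at e1 e2
    rw [show χ (1 : Q) = χ ((1 : N) : Q) by rw [Subgroup.coe_one], e1, e2]
    congr 1
    refine Finset.sum_congr rfl fun η hη => ?_
    obtain ⟨u, hu, rfl⟩ := hall η hη
    show (θ : N → ℂ) (m ^ _) = (θ : N → ℂ) ((1 : N) ^ _)
    rw [one_pow]
    exact K.pow_mem hm _
  have haa : a' = aN := by
    have h4 := Subgroup.card_eq_card_quotient_mul_card_subgroup K
    rw [ha', haN, hKbot, Subgroup.card_bot, mul_one] at h4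
    exact (Nat.pow_right_injective hp.out.two_le h4).symm
  rw [haa] at h1
  have h7 : 1 ≤ (t + 1) * (p - 1) * charDegree (θ : N → ℂ) := Nat.mul_pos (Nat.mul_pos (Nat.succ_pos t) hq) hf0
  obtain ⟨q, hq'⟩ : ∃ q, p = q + 1 := ⟨p - 1, (Nat.sub_add_cancel hp.out.one_le).symm⟩
  have hpq : p - 1 = q := by omega
  rw [hpq] at h1 h7 ⊢
  rw [hq']
  nlinarith [Nat.mul_le_mul_left q h7]

end CfsgLib.PFieldBound
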